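/-
Gauss's identity for a prime `ℓ ≡ 3 mod 4`: `4 Φ_ℓ = Y² + ℓ Z²` with `Y, Z ∈ ℚ[X]`.
-/
import Mathlib

set_option autoImplicit false
set_option linter.unusedSectionVars false
set_option linter.style.haveILetI false

namespace Cfsg.Agent.Lib.Amitsur.Gauss

open Polynomial Finset

variable {ℓ : ℕ} [hℓ : Fact ℓ.Prime] {L : Type*} [Field L] {η : L}

instance neZeroAux : NeZero ℓ := ⟨hℓ.out.ne_zero⟩

/-- The additive character attached to a root of unity. -/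
noncomputable abbrev psi (hη : IsPrimitiveRoot η ℓ) : AddChar (ZMod ℓ) L :=
  AddChar.zmodChar ℓ hη.pow_eq_one

/-- The product over the elements of given quadratic character. -/
noncomputable def Pc (hη : IsPrimitiveRoot η ℓ) (ε : ℤ) : L[X] :=
  ∏ u ∈ univ.filter (fun u : ZMod ℓ => quadraticChar (ZMod ℓ) u = ε), (X - C (psi hη u))

theorem psi_natCast (hη : IsPrimitiveRoot η ℓ) (n : ℕ) : psi hη (n : ZMod ℓ) = η ^ n :=
  AddChar.zmodChar_apply' hη.pow_eq_one n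

theorem psi_apply (hη : IsPrimitiveRoot η ℓ) (u : ZMod ℓ) : psi hη u = η ^ u.val :=
  AddChar.zmodChar_apply hη.pow_eq_one u

theorem prod_nonzero (hη : IsPrimitiveRoot η ℓ) :
    ∏ u ∈ univ.filter (fun u : ZMod ℓ => u ≠ 0), (X - C (psi hη u)) =
      ∑ i ∈ range ℓ, (X : L[X]) ^ i := by
  have hp := hℓ.out
  rw [← Polynomial.cyclotomic_prime L ℓ, Polynomial.cyclotomic_eq_prod_X_sub_primitiveRoots hη]
  refine Finset.prod_bij (fun u _ => psi hη u) ?_ ?_ ?_ ?_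
  · intro u hu
    have hu0 : u ≠ 0 := (mem_filter.mp hu).2
    rw [mem_primitiveRoots hp.pos, psi_apply]
    apply hη.pow_of_coprime
    rw [Nat.coprime_comm, hp.coprime_iff_not_dvd]
    intro hd
    have h1 : u.val < ℓ := ZMod.val_lt u
    have h2 : u.val ≠ 0 := by
      rwa [Ne, ZMod.val_eq_zero]
    exact absurd (Nat.le_of_dvd (Nat.pos_of_ne_zero h2) hd) (by omega)
  · intro u _ v _ h
    rw [psi_apply, psi_apply] at h
    have := hη.pow_inj (ZMod.val_lt u) (ZMod.val_lt v) h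
    exact ZMod.val_injective ℓ this
  · intro μ hμ
    rw [mem_primitiveRoots hp.pos] at hμ
    obtain ⟨i, hi, rfl⟩ := hη.eq_pow_of_pow_eq_one hμ.pow_eq_one
    have hne : (i : ZMod ℓ) ≠ 0 := by
      intro h
      rw [ZMod.natCast_eq_zero_iff] at h
      have hi0 : i = 0 := Nat.eq_zero_of_dvd_of_lt h hi
      rw [hi0, pow_zero] at hμ
      exact hμ.ne_one hp.one_lt rfl
    exact ⟨(i : ZMod ℓ), mem_filter.mpr ⟨mem_univ _, hne⟩, psi_natCast hη i⟩
  · intro _ _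
    rfl

theorem Pc_mul (hη : IsPrimitiveRoot η ℓ) :
    Pc hη 1 * Pc hη (-1) = ∑ i ∈ range ℓ, (X : L[X]) ^ i := by
  rw [← prod_nonzero hη, Pc, Pc, ← Finset.prod_union]
  · apply Finset.prod_congr _ (fun _ _ => rfl)
    ext u
    simp only [mem_union, mem_filter, mem_univ, true_and]
    constructor
    · rintro (h | h) h0 <;> · rw [h0, MulChar.map_zero] at h; omega
    · intro h0
      exact quadraticChar_dichotomy h0
  · rw [Finset.disjoint_left]
    intro u hu hu'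
    have h1 := (mem_filter.mp hu).2
    have h2 := (mem_filter.mp hu').2
    omega

section Galois

variable (σ : L →+* L)

/-- The substitution in the products. -/
theorem exists_k (hη : IsPrimitiveRoot η ℓ) :
    ∃ k : ZMod ℓ, k ≠ 0 ∧ ∀ u, σ (psi hη u) = psi hη (k * u) := by
  have hp := hℓ.out
  have h1 : IsPrimitiveRoot (σ η) ℓ := hη.map_of_injective σ.injective
  obtain ⟨i, hi, hei⟩ := hη.eq_pow_of_pow_eq_one h1.pow_eq_one
  have hne : (i : ZMod ℓ) ≠ 0 := by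
    intro h
    rw [ZMod.natCast_eq_zero_iff] at h
    have hi0 : i = 0 := Nat.eq_zero_of_dvd_of_lt h hi
    rw [hi0, pow_zero] at hei
    exact h1.ne_one hp.one_lt hei.symm
  refine ⟨(i : ZMod ℓ), hne, fun u => ?_⟩
  have e : (i : ZMod ℓ) * u = ((i * u.val : ℕ) : ZMod ℓ) := by
    push_cast
    rw [ZMod.natCast_zmod_val]
  rw [e, psi_natCast, psi_apply, map_pow, ← hei, pow_mul]

theorem map_Pc (hη : IsPrimitiveRoot η ℓ) {k : ZMod ℓ} (hk0 : k ≠ 0)
    (hk : ∀ u, σ (psi hη u) = psi hη (k * u)) (ε : ℤ) :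
    (Pc hη ε).map σ = Pc hη (quadraticChar (ZMod ℓ) k * ε) := by
  rw [Pc, Pc, Polynomial.map_prod]
  have hχ0 : quadraticChar (ZMod ℓ) k ≠ 0 := quadraticChar_eq_zero_iff.not.mpr hk0
  refine Finset.prod_equiv (Equiv.mulLeft₀ k hk0) ?_ ?_
  · intro u
    simp only [mem_filter, mem_univ, true_and]
    show _ ↔ quadraticChar (ZMod ℓ) (k * u) = _
    rw [map_mul, mul_right_inj' hχ0]
  · intro u _
    simp only [Polynomial.map_sub, map_X, map_C, hk]
    rfl

end Galois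

section Sum

variable [CharZero L]

/-- The quadratic Gauss sum. -/
noncomputable def gS (hη : IsPrimitiveRoot η ℓ) : L :=
  ∑ u : ZMod ℓ, ((quadraticChar (ZMod ℓ) u : ℤ) : L) * psi hη u

theorem gS_sq (hℓ2 : ℓ ≠ 2) (hη : IsPrimitiveRoot η ℓ) :
    gS hη ^ 2 = ((quadraticChar (ZMod ℓ) (-1) : ℤ) : L) * (ℓ : L) := by
  have hF : ringChar (ZMod ℓ) ≠ 2 := by
    rw [ZMod.ringChar_zmod_n]
    exact hℓ2
  have hne : (quadraticChar (ZMod ℓ)).ringHomComp (Int.castRingHom L) ≠ 1 := by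
    intro h
    apply quadraticChar_ne_one hF
    rw [← MulChar.ringHomComp_eq_one_iff (f := Int.castRingHom L) Int.cast_injective]
    exact h
  have hq : ((quadraticChar (ZMod ℓ)).ringHomComp (Int.castRingHom L)).IsQuadratic :=
    (quadraticChar_isQuadratic (ZMod ℓ)).comp _
  have h := gaussSum_sq hne hq (AddChar.zmodChar_primitive_of_primitive_root ℓ hη)
  have e : gaussSum ((quadraticChar (ZMod ℓ)).ringHomComp (Int.castRingHom L))
      (AddChar.zmodChar ℓ ((IsPrimitiveRoot.iff_def η ℓ).mp hη).1) = gS hη := rfl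
  rw [e] at h
  rw [h, ZMod.card]
  rfl

theorem map_gS (σ : L →+* L) (hη : IsPrimitiveRoot η ℓ) {k : ZMod ℓ} (hk0 : k ≠ 0)
    (hk : ∀ u, σ (psi hη u) = psi hη (k * u)) :
    σ (gS hη) = ((quadraticChar (ZMod ℓ) k : ℤ) : L) * gS hη := by
  have h1 : σ (gS hη) = ∑ u : ZMod ℓ, ((quadraticChar (ZMod ℓ) u : ℤ) : L) * psi hη (k * u) := by
    rw [gS, map_sum]
    refine Finset.sum_congr rfl fun u _ => ?_
    rw [map_mul, map_intCast, hk]
  have h2 : gS hη = ((quadraticChar (ZMod ℓ) k : ℤ) : L) * σ (gS hη) := by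
    rw [h1, Finset.mul_sum, gS,
      ← Equiv.sum_comp (Equiv.mulLeft₀ k hk0)
        (fun v => ((quadraticChar (ZMod ℓ) v : ℤ) : L) * psi hη v)]
    refine Finset.sum_congr rfl fun u _ => ?_
    show ((quadraticChar (ZMod ℓ) (k * u) : ℤ) : L) * psi hη (k * u) = _
    rw [map_mul]
    push_cast
    ring
  have h3 : ((quadraticChar (ZMod ℓ) k : ℤ) : L) * ((quadraticChar (ZMod ℓ) k : ℤ) : L) = 1 := by
    have := quadraticChar_sq_one hk0
    rw [pow_two] at this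
    exact_mod_cast this
  calc σ (gS hη) = (((quadraticChar (ZMod ℓ) k : ℤ) : L) * ((quadraticChar (ZMod ℓ) k : ℤ) : L)) *
        σ (gS hη) := by rw [h3, one_mul]
    _ = ((quadraticChar (ZMod ℓ) k : ℤ) : L) * (((quadraticChar (ZMod ℓ) k : ℤ) : L) *
        σ (gS hη)) := by ring
    _ = _ := by rw [← h2]

theorem gS_ne_zero (hℓ2 : ℓ ≠ 2) (hη : IsPrimitiveRoot η ℓ) : gS hη ≠ 0 := by
  intro h
  have h1 := gS_sq hℓ2 hη
  rw [h, zero_pow two_ne_zero] at h1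
  have hF : ringChar (ZMod ℓ) ≠ 2 := by
    rw [ZMod.ringChar_zmod_n]
    exact hℓ2
  have h2 : (-1 : ZMod ℓ) ≠ 0 := neg_ne_zero.mpr one_ne_zero
  have h3 : ((quadraticChar (ZMod ℓ) (-1) : ℤ) : L) ≠ 0 := by
    rw [Int.cast_ne_zero]
    exact quadraticChar_eq_zero_iff.not.mpr h2
  have h4 : (ℓ : L) ≠ 0 := Nat.cast_ne_zero.mpr hℓ.out.ne_zero
  exact (mul_ne_zero h3 h4) h1.symm

end Sum

section Lift

variable {F : Type*} [Field F] [Algebra F L] [FiniteDimensional F L] [IsGalois F L]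

/-- A polynomial fixed by the Galois group has coefficients in the ground field. -/
theorem exists_lift {P : L[X]} (hP : ∀ σ : L ≃ₐ[F] L, P.map (σ : L →+* L) = P) :
    ∃ f : F[X], f.map (algebraMap F L) = P := by
  have h : P ∈ Polynomial.lifts (algebraMap F L) := by
    rw [Polynomial.lifts_iff_coeff_lifts]
    intro n
    have h1 : P.coeff n ∈ (⊥ : IntermediateField F L) := by
      rw [IsGalois.mem_bot_iff_fixed]
      intro σ
      have := congrArg (fun Q => Polynomial.coeff Q n) (hP σ)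
      simpa [Polynomial.coeff_map] using this
    exact IntermediateField.mem_bot.mp h1
  rw [Polynomial.mem_lifts] at h
  exact h

end Lift

theorem quadChar_neg_one (h3 : ℓ % 4 = 3) : quadraticChar (ZMod ℓ) (-1) = -1 := by
  have hℓ2 : ℓ ≠ 2 := by
    rintro rfl
    omega
  have hF : ringChar (ZMod ℓ) ≠ 2 := by
    rw [ZMod.ringChar_zmod_n]
    exact hℓ2
  rw [quadraticChar_neg_one hF, ZMod.card]
  exact ZMod.χ₄_nat_three_mod_four h3

theorem gauss_id_of [Algebra ℚ L] [FiniteDimensional ℚ L] [IsGalois ℚ L]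
    (hη : IsPrimitiveRoot η ℓ) (h3 : ℓ % 4 = 3) :
    ∃ Y Z : ℚ[X], C 4 * ∑ i ∈ range ℓ, (X : ℚ[X]) ^ i = Y ^ 2 + C (ℓ : ℚ) * Z ^ 2 := by
  haveI : CharZero L := algebraRat.charZero L
  have hℓ2 : ℓ ≠ 2 := by
    rintro rfl
    omega
  have hg := gS_ne_zero hℓ2 hη
  have hgsq : gS hη ^ 2 = -(ℓ : L) := by
    rw [gS_sq hℓ2 hη, quadChar_neg_one h3]
    push_cast
    ring
  have hY : ∀ σ : L ≃ₐ[ℚ] L, (Pc hη 1 + Pc hη (-1)).map (σ : L →+* L) = Pc hη 1 + Pc hη (-1) := by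
    intro σ
    obtain ⟨k, hk0, hk⟩ := exists_k (σ : L →+* L) hη
    rw [Polynomial.map_add, map_Pc _ hη hk0 hk, map_Pc _ hη hk0 hk]
    rcases quadraticChar_dichotomy hk0 with h | h <;> rw [h]
    · simp
    · simp [add_comm]
  have hZ : ∀ σ : L ≃ₐ[ℚ] L, ((Pc hη 1 - Pc hη (-1)) * C (gS hη)⁻¹).map (σ : L →+* L) =
      (Pc hη 1 - Pc hη (-1)) * C (gS hη)⁻¹ := by
    intro σ
    obtain ⟨k, hk0, hk⟩ := exists_k (σ : L →+* L) hη
    rw [Polynomial.map_mul, Polynomial.map_sub, map_Pc _ hη hk0 hk, map_Pc _ hη hk0 hk, map_C,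
      map_inv₀, map_gS _ hη hk0 hk]
    rcases quadraticChar_dichotomy hk0 with h | h <;> rw [h]
    · simp
    · simp only [mul_neg, mul_one, neg_neg, Int.cast_neg, Int.cast_one, neg_mul, one_mul, inv_neg,
        map_neg]
      ring
  obtain ⟨Y, hYe⟩ := exists_lift (F := ℚ) hY
  obtain ⟨Z, hZe⟩ := exists_lift (F := ℚ) hZ
  refine ⟨Y, Z, ?_⟩
  apply Polynomial.map_injective (algebraMap ℚ L) (algebraMap ℚ L).injective
  simp only [Polynomial.map_mul, Polynomial.map_add, Polynomial.map_pow, map_C, hYe, hZe,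
    Polynomial.map_sum, map_X]
  rw [← Pc_mul hη]
  have hc : C (algebraMap ℚ L (ℓ : ℚ)) * (C (gS hη)⁻¹) ^ 2 = -1 := by
    rw [← C_pow, ← C_mul, map_natCast, inv_pow, hgsq]
    rw [inv_neg, mul_neg, mul_inv_cancel₀ (Nat.cast_ne_zero.mpr hℓ.out.ne_zero)]
    simp
  have h4 : C (algebraMap ℚ L 4) = (4 : L[X]) := by
    rw [map_ofNat]
    rfl
  rw [h4]
  linear_combination (Pc hη 1 - Pc hη (-1)) ^ 2 * (-hc)

theorem gauss_id_gen (ℓ : ℕ) [hℓ : Fact ℓ.Prime] (L : Type*) [Field L] [Algebra ℚ L]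
    [IsCyclotomicExtension {ℓ} ℚ L] (h3 : ℓ % 4 = 3) :
    ∃ Y Z : ℚ[X], C 4 * ∑ i ∈ range ℓ, (X : ℚ[X]) ^ i = Y ^ 2 + C (ℓ : ℚ) * Z ^ 2 := by
  haveI : IsGalois ℚ L := IsCyclotomicExtension.isGalois {ℓ} ℚ _
  haveI : FiniteDimensional ℚ L := IsCyclotomicExtension.finiteDimensional {ℓ} ℚ _
  exact gauss_id_of (IsCyclotomicExtension.zeta_spec ℓ ℚ L) h3

/-- **Gauss's identity.** -/
theorem gauss_id (ℓ : ℕ) [hℓ : Fact ℓ.Prime] (h3 : ℓ % 4 = 3) :
    ∃ Y Z : ℚ[X], C 4 * ∑ i ∈ range ℓ, (X : ℚ[X]) ^ i = Y ^ 2 + C (ℓ : ℚ) * Z ^ 2 := by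
  letI : Algebra ℚ (CyclotomicField ℓ ℚ) := CyclotomicField.algebra ℓ ℚ
  exact gauss_id_gen ℓ (CyclotomicField ℓ ℚ) h3

end Cfsg.Agent.Lib.Amitsur.Gauss
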