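/-
The level of a field containing `√5` and a primitive `q`-th root of unity (`q` an odd prime
different from `5`, characteristic zero): `-1` is a sum of two squares.
-/
import Cfsg.Agent.Lib.Amitsur.Gauss

set_option autoImplicit false
set_option linter.unusedSectionVars false
set_option linter.style.haveILetI false

namespace Cfsg.Agent.Lib.Amitsur.Level

open Polynomial Finset

/-- **Dirichlet and Chinese remainders**: a prime `ℓ ≡ 3 mod 20` with a power `≡ -1 mod q`. -/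
theorem exists_prime_aux {q : ℕ} (hq : q.Prime) (hq2 : q ≠ 2) (hq5 : q ≠ 5) :
    ∃ ℓ : ℕ, ℓ.Prime ∧ ℓ % 20 = 3 ∧ ∃ d : ℕ, (ℓ : ZMod q) ^ d = -1 := by
  haveI : Fact q.Prime := ⟨hq⟩
  have hcop : Nat.Coprime 20 q := by
    rw [show (20 : ℕ) = 2 ^ 2 * 5 by norm_num]
    apply Nat.Coprime.mul_left
    · exact Nat.Coprime.pow_left 2 ((Nat.coprime_primes Nat.prime_two hq).mpr (Ne.symm hq2))
    · exact (Nat.coprime_primes Nat.prime_five hq).mpr (Ne.symm hq5)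
  obtain ⟨g, hg⟩ := IsCyclic.exists_generator (α := (ZMod q)ˣ)
  let e := ZMod.chineseRemainder hcop
  let a : ZMod (20 * q) := e.symm ((3 : ZMod 20), (g : ZMod q))
  have ha : IsUnit a := by
    apply IsUnit.map e.symm
    rw [Prod.isUnit_iff]
    refine ⟨?_, g.isUnit⟩
    exact ⟨⟨3, 7, by decide, by decide⟩, rfl⟩
  haveI : NeZero (20 * q) := ⟨by have := hq.pos; omega⟩
  obtain ⟨ℓ, -, hℓ, hℓa⟩ := Nat.forall_exists_prime_gt_and_eq_mod ha 0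
  have h1 : e (ℓ : ZMod (20 * q)) = ((3 : ZMod 20), (g : ZMod q)) := by
    rw [hℓa]
    exact e.apply_symm_apply _
  rw [map_natCast] at h1
  have h20 : (ℓ : ZMod 20) = 3 := congrArg Prod.fst h1
  have hqq : (ℓ : ZMod q) = g := congrArg Prod.snd h1
  refine ⟨ℓ, hℓ, ?_, ?_⟩
  · have : ((ℓ : ℕ) : ZMod 20) = ((3 : ℕ) : ZMod 20) := by
      rw [h20]
      rfl
    rw [ZMod.natCast_eq_natCast_iff'] at this
    omega
  · have hmem := hg (-1 : (ZMod q)ˣ)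
    rw [← mem_powers_iff_mem_zpowers] at hmem
    obtain ⟨d, hd⟩ := hmem
    refine ⟨d, ?_⟩
    rw [hqq]
    have := congrArg (fun u : (ZMod q)ˣ => (u : ZMod q)) hd
    simpa using this

theorem not_sq_three : ∀ r : ZMod 5, (3 : ZMod 5) ≠ r * r := by decide

/-- `-5` is a square modulo a prime `ℓ ≡ 3 mod 20`. -/
theorem neg_five_isSquare {ℓ : ℕ} [hℓ : Fact ℓ.Prime] (h : ℓ % 20 = 3) :
    ∃ t : ZMod ℓ, t ^ 2 = -5 := by
  have hℓ2 : ℓ ≠ 2 := by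
    rintro rfl
    omega
  have hℓ5 : ℓ ≠ 5 := by
    rintro rfl
    omega
  haveI : Fact (Nat.Prime 5) := ⟨Nat.prime_five⟩
  have h1 : legendreSym ℓ 5 = -1 := by
    have h0 : legendreSym ℓ 5 = legendreSym 5 (ℓ : ℤ) := by
      simpa using legendreSym.quadratic_reciprocity_one_mod_four (p := 5) (q := ℓ) (by norm_num) hℓ2
    rw [h0]
    have h5 : ((ℓ : ℤ) : ZMod 5) = ((3 : ℤ) : ZMod 5) := by
      rw [ZMod.intCast_eq_intCast_iff']
      omega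
    rw [legendreSym.mod 5 (ℓ : ℤ)]
    have hm : (ℓ : ℤ) % (5 : ℕ) = 3 := by
      push_cast
      omega
    rw [hm, legendreSym.eq_neg_one_iff]
    rintro ⟨r, hr⟩
    exact not_sq_three r (by simpa using hr)
  have h2 : legendreSym ℓ (-1) = -1 := by
    rw [legendreSym.at_neg_one hℓ2]
    exact ZMod.χ₄_nat_three_mod_four (by omega)
  have h3 : legendreSym ℓ (-5) = 1 := by
    have e : (-5 : ℤ) = (-1) * 5 := by norm_num
    rw [e, legendreSym.mul, h1, h2]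
    norm_num
  have h4 : ((-5 : ℤ) : ZMod ℓ) ≠ 0 := by
    intro h0
    rw [← legendreSym.eq_zero_iff, h3] at h0
    omega
  have h5 := (legendreSym.eq_one_iff ℓ h4).mp h3
  obtain ⟨t, ht⟩ := h5
  refine ⟨t, ?_⟩
  rw [pow_two, ← ht]
  norm_num

/-- **Thue**: `x² + 5 y² = k ℓ` with `1 ≤ k ≤ 5`. -/
theorem thue {ℓ : ℕ} [hℓ : Fact ℓ.Prime] {t : ZMod ℓ} (ht : t ^ 2 = -5) :
    ∃ (x y : ℤ) (k : ℕ), 1 ≤ k ∧ k ≤ 5 ∧ x ^ 2 + 5 * y ^ 2 = k * ℓ := by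
  have hp := hℓ.out
  set r := Nat.sqrt ℓ with hr
  have hr1 : r * r ≤ ℓ := Nat.sqrt_le ℓ
  have hr2 : ℓ < (r + 1) * (r + 1) := Nat.lt_succ_sqrt ℓ
  have hne : r * r ≠ ℓ := by
    intro h
    by_cases h1 : r = 1
    · rw [h1] at h
      have := hp.two_le
      omega
    · rw [← h] at hp
      exact Nat.not_prime_mul h1 h1 hp
  have hlt : r * r < ℓ := lt_of_le_of_ne hr1 hne
  let f : Fin (r + 1) × Fin (r + 1) → ZMod ℓ := fun a => ((a.1 : ℕ) : ZMod ℓ) - t * ((a.2 : ℕ) : ZMod ℓ)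
  have hcard : Fintype.card (ZMod ℓ) < Fintype.card (Fin (r + 1) × Fin (r + 1)) := by
    rw [ZMod.card, Fintype.card_prod, Fintype.card_fin]
    exact hr2
  obtain ⟨a, b, hab, hf⟩ := Fintype.exists_ne_map_eq_of_card_lt f hcard
  set x : ℤ := ((a.1 : ℕ) : ℤ) - ((b.1 : ℕ) : ℤ) with hx
  set y : ℤ := ((a.2 : ℕ) : ℤ) - ((b.2 : ℕ) : ℤ) with hy
  have hxy : (x : ZMod ℓ) = t * (y : ZMod ℓ) := by
    have : ((a.1 : ℕ) : ZMod ℓ) - t * ((a.2 : ℕ) : ZMod ℓ) =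
        ((b.1 : ℕ) : ZMod ℓ) - t * ((b.2 : ℕ) : ZMod ℓ) := hf
    rw [hx, hy]
    push_cast
    linear_combination this
  have ha1 := a.1.2
  have ha2 := a.2.2
  have hb1 := b.1.2
  have hb2 := b.2.2
  have hxb : x ^ 2 ≤ (r : ℤ) * r := by
    have h1 : x ≤ r := by omega
    have h2 : -(r : ℤ) ≤ x := by omega
    nlinarith
  have hyb : y ^ 2 ≤ (r : ℤ) * r := by
    have h1 : y ≤ r := by omega
    have h2 : -(r : ℤ) ≤ y := by omega
    nlinarith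
  have hnz : 0 < x ^ 2 + 5 * y ^ 2 := by
    by_contra hcon
    have h1 : x ^ 2 = 0 := by nlinarith [sq_nonneg x, sq_nonneg y]
    have h2 : y ^ 2 = 0 := by nlinarith [sq_nonneg x, sq_nonneg y]
    have hx0 : x = 0 := by simpa using h1
    have hy0 : y = 0 := by simpa using h2
    apply hab
    apply Prod.ext
    · apply Fin.ext
      omega
    · apply Fin.ext
      omega
  have hdvd : (ℓ : ℤ) ∣ x ^ 2 + 5 * y ^ 2 := by
    rw [← ZMod.intCast_zmod_eq_zero_iff_dvd]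
    push_cast
    rw [hxy]
    linear_combination ((y : ZMod ℓ)) ^ 2 * ht
  obtain ⟨m, hm⟩ := hdvd
  have hℓpos : (0 : ℤ) < ℓ := by exact_mod_cast hp.pos
  have hm0 : 0 < m := by
    by_contra hcon
    push Not at hcon
    have : (ℓ : ℤ) * m ≤ 0 := mul_nonpos_of_nonneg_of_nonpos hℓpos.le hcon
    omega
  have hm6 : m < 6 := by
    by_contra hcon
    push Not at hcon
    have h1 : (ℓ : ℤ) * 6 ≤ (ℓ : ℤ) * m := mul_le_mul_of_nonneg_left hcon hℓpos.le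
    have h2 : ((r : ℤ) * r) < ℓ := by exact_mod_cast hlt
    nlinarith
  refine ⟨x, y, m.toNat, by omega, by omega, ?_⟩
  rw [hm]
  have : ((m.toNat : ℕ) : ℤ) = m := Int.toNat_of_nonneg hm0.le
  rw [this]
  ring

section Field

variable {K : Type*} [Field K]

/-- `ℓ` is a sum of two squares in a field containing `√5`. -/
theorem sum_two_sq_prime [CharZero K] {s : K} (hs : s ^ 2 = 5) {ℓ : ℕ} [hℓ : Fact ℓ.Prime]
    (h : ℓ % 20 = 3) : ∃ c d : K, c ^ 2 + d ^ 2 = ℓ := by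
  obtain ⟨t, ht⟩ := neg_five_isSquare h
  obtain ⟨x, y, k, hk1, hk5, he⟩ := thue ht
  have hk : ∃ u v : K, u ^ 2 + v ^ 2 = k := by
    have h2 : (2 : K) ≠ 0 := two_ne_zero
    interval_cases k
    · exact ⟨1, 0, by norm_num⟩
    · exact ⟨1, 1, by norm_num⟩
    · refine ⟨(1 + s) / 2, (1 - s) / 2, ?_⟩
      field_simp
      push_cast
      linear_combination 2 * hs
    · exact ⟨2, 0, by norm_num⟩
    · exact ⟨s, 0, by rw [hs]; norm_num⟩
  obtain ⟨u, v, huv⟩ := hk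
  have hk0 : (k : K) ≠ 0 := Nat.cast_ne_zero.mpr (by omega)
  have he' : ((x : K)) ^ 2 + 5 * (y : K) ^ 2 = k * ℓ := by exact_mod_cast he
  refine ⟨((x : K) * u - s * y * v) / k, ((x : K) * v + s * y * u) / k, ?_⟩
  field_simp
  linear_combination ((y : K) ^ 2 * (u ^ 2 + v ^ 2)) * hs + (u ^ 2 + v ^ 2) * he' + ((k : K) * ℓ) * huv

/-- Pfister's trick. -/
theorem two_of_three [CharZero K] {a e f : K} (h : a ^ 2 + e ^ 2 + f ^ 2 = -1) :
    ∃ p r : K, p ^ 2 + r ^ 2 = -1 := by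
  by_cases hn : e ^ 2 + f ^ 2 = 0
  · exact ⟨a, 0, by linear_combination h - hn⟩
  · refine ⟨(e + a * f) / (e ^ 2 + f ^ 2), (f - a * e) / (e ^ 2 + f ^ 2), ?_⟩
    have h1 : 1 + a ^ 2 = -(e ^ 2 + f ^ 2) := by linear_combination h
    field_simp
    linear_combination (e ^ 2 + f ^ 2) * h1

/-- The Gauss identity in a field. -/
theorem norm_geom [CharZero K] {ℓ : ℕ} [hℓ : Fact ℓ.Prime] (h3 : ℓ % 4 = 3) (x : K) :
    ∃ a b : K, ∑ i ∈ range ℓ, x ^ i = a ^ 2 + ℓ * b ^ 2 := by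
  obtain ⟨Y, Z, hYZ⟩ := Gauss.gauss_id ℓ h3
  have h := congrArg (Polynomial.aeval x) hYZ
  simp only [map_mul, map_add, map_pow, map_sum, aeval_C, aeval_X] at h
  refine ⟨aeval x Y / 2, aeval x Z / 2, ?_⟩
  have h4 : algebraMap ℚ K 4 = 4 := by simp
  have hl : algebraMap ℚ K (ℓ : ℚ) = (ℓ : K) := by simp
  rw [h4, hl] at h
  linear_combination h / 4

/-- The norm form is multiplicative. -/
theorem norm_mul {ℓ : K} {u v : K} (hu : ∃ a b : K, u = a ^ 2 + ℓ * b ^ 2)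
    (hv : ∃ a b : K, v = a ^ 2 + ℓ * b ^ 2) : ∃ a b : K, u * v = a ^ 2 + ℓ * b ^ 2 := by
  obtain ⟨a, b, rfl⟩ := hu
  obtain ⟨c, d, rfl⟩ := hv
  exact ⟨a * c - ℓ * b * d, a * d + b * c, by ring⟩

/-- `-1` is a value of the norm form. -/
theorem neg_one_norm [CharZero K] {q : ℕ} (hq : q.Prime) (hq2 : q ≠ 2) {ζ : K}
    (hζ : IsPrimitiveRoot ζ q) {ℓ : ℕ} [hℓ : Fact ℓ.Prime] (h3 : ℓ % 4 = 3) {d : ℕ}
    (hd : (ℓ : ZMod q) ^ d = -1) : ∃ a b : K, (-1 : K) = a ^ 2 + ℓ * b ^ 2 := by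
  have hz1 : ζ ≠ 1 := hζ.ne_one hq.one_lt
  have hz0 : ζ ≠ 0 := hζ.ne_zero hq.ne_zero
  -- the telescoping product
  have htel : ∀ n : ℕ, ∃ P : K, (∃ a b : K, P = a ^ 2 + ℓ * b ^ 2) ∧
      P * (ζ - 1) = ζ ^ ℓ ^ n - 1 := by
    intro n
    induction n with
    | zero => exact ⟨1, ⟨1, 0, by ring⟩, by simp⟩
    | succ n ih =>
      obtain ⟨P, hP, hPe⟩ := ih
      obtain ⟨a, b, hab⟩ := norm_geom (K := K) h3 (ζ ^ ℓ ^ n)
      refine ⟨P * ∑ i ∈ range ℓ, (ζ ^ ℓ ^ n) ^ i, norm_mul hP ⟨a, b, hab⟩, ?_⟩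
      have h1 := geom_sum_mul (ζ ^ ℓ ^ n) ℓ
      rw [pow_succ, pow_mul]
      rw [← h1, ← hPe]
      ring
  obtain ⟨P, hP, hPe⟩ := htel d
  have hinv : ζ ^ ℓ ^ d = ζ⁻¹ := by
    have hdvd : q ∣ ℓ ^ d + 1 := by
      rw [← ZMod.natCast_eq_zero_iff]
      push_cast
      rw [hd]
      ring
    have : ζ ^ (ℓ ^ d + 1) = 1 := (hζ.pow_eq_one_iff_dvd _).mpr hdvd
    rw [pow_succ] at this
    exact eq_inv_of_mul_eq_one_left this
  have hP2 : P = -ζ⁻¹ := by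
    have h1 : P * (ζ - 1) = (-ζ⁻¹) * (ζ - 1) := by
      rw [hPe, hinv]
      field_simp
      ring
    exact mul_right_cancel₀ (sub_ne_zero.mpr hz1) h1
  obtain ⟨a, b, hab⟩ := hP
  have hodd : (q + 1) / 2 * 2 = q + 1 := by
    have := hq.eq_two_or_odd
    omega
  have hw : (ζ ^ ((q + 1) / 2)) ^ 2 = ζ := by
    rw [← pow_mul, hodd, pow_succ, hζ.pow_eq_one, one_mul]
  refine ⟨a * ζ ^ ((q + 1) / 2), b * ζ ^ ((q + 1) / 2), ?_⟩
  have h2 : (a * ζ ^ ((q + 1) / 2)) ^ 2 + ℓ * (b * ζ ^ ((q + 1) / 2)) ^ 2 =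
      (a ^ 2 + ℓ * b ^ 2) * (ζ ^ ((q + 1) / 2)) ^ 2 := by ring
  rw [h2, ← hab, hw, hP2]
  field_simp

/-- **The level lemma.** -/
theorem level_two [CharZero K] {q : ℕ} (hq : q.Prime) (hq2 : q ≠ 2) (hq5 : q ≠ 5) {ζ : K}
    (hζ : IsPrimitiveRoot ζ q) {s : K} (hs : s ^ 2 = 5) : ∃ p r : K, p ^ 2 + r ^ 2 = -1 := by
  obtain ⟨ℓ, hℓ, h20, d, hd⟩ := exists_prime_aux hq hq2 hq5
  haveI : Fact ℓ.Prime := ⟨hℓ⟩
  obtain ⟨c, e, hce⟩ := sum_two_sq_prime hs h20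
  obtain ⟨a, b, hab⟩ := neg_one_norm hq hq2 hζ (by omega) hd
  refine two_of_three (a := a) (e := c * b) (f := e * b) ?_
  rw [hab, ← hce]
  ring

end Field

end Cfsg.Agent.Lib.Amitsur.Level
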