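/-
Identities in a division ring of characteristic zero: elements of `SL(2,5)` in a division ring
have no centralizing element of odd prime order prime to five, and no element acting on `x`
(of order five) by squaring.
-/
import Cfsg.Agent.Lib.Amitsur.Level

set_option autoImplicit false
set_option linter.unusedSectionVars false
set_option linter.style.haveILetI false

namespace Cfsg.Agent.Lib.Amitsur.DLemmas

variable {D : Type*} [DivisionRing D]

section XFacts

variable {x : D}

theorem ne_zero_of_pow5 (hx5 : x ^ 5 = 1) : x ≠ 0 := by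
  rintro rfl
  norm_num at hx5

theorem sum5 (hx5 : x ^ 5 = 1) (hx1 : x ≠ 1) : 1 + x + x * x + x * x * x + x * x * x * x = 0 := by
  have h : (x - 1) * (1 + x + x * x + x * x * x + x * x * x * x) = x ^ 5 - 1 := by
    noncomm_ring
  rw [hx5, sub_self] at h
  exact (mul_eq_zero.mp h).resolve_left (sub_ne_zero.mpr hx1)

theorem sumU (hx5 : x ^ 5 = 1) (hx1 : x ≠ 1) : x⁻¹ * x⁻¹ + x⁻¹ + 1 + x + x * x = 0 := by
  have hx0 := ne_zero_of_pow5 hx5
  have h := sum5 hx5 hx1
  have h2 : x⁻¹ * x⁻¹ * (1 + x + x * x + x * x * x + x * x * x * x) = x⁻¹ * x⁻¹ + x⁻¹ + 1 + x + x * x := by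
    simp only [mul_add, mul_one, mul_assoc, inv_mul_cancel_left₀ hx0, inv_mul_cancel₀ hx0]
  rw [← h2, h, mul_zero]

theorem tau_sq (hx5 : x ^ 5 = 1) (hx1 : x ≠ 1) :
    (x + x⁻¹) * (x + x⁻¹) = 1 - (x + x⁻¹) := by
  have hx0 := ne_zero_of_pow5 hx5
  have h1 : x * x⁻¹ = 1 := mul_inv_cancel₀ hx0
  have h2 : x⁻¹ * x = 1 := inv_mul_cancel₀ hx0
  linear_combination (norm := noncomm_ring) h1 + h2 + sumU hx5 hx1

theorem y_sq (hx5 : x ^ 5 = 1) (hx1 : x ≠ 1) :
    (x - x⁻¹) * (x - x⁻¹) = -3 - (x + x⁻¹) := by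
  have hx0 := ne_zero_of_pow5 hx5
  have h1 : x * x⁻¹ = 1 := mul_inv_cancel₀ hx0
  have h2 : x⁻¹ * x = 1 := inv_mul_cancel₀ hx0
  linear_combination (norm := (noncomm_ring; norm_num)) -h1 - h2 + sumU hx5 hx1

theorem tau_y (hx5 : x ^ 5 = 1) : (x + x⁻¹) * (x - x⁻¹) = (x - x⁻¹) * (x + x⁻¹) := by
  have hx0 := ne_zero_of_pow5 hx5
  have h1 : x * x⁻¹ = 1 := mul_inv_cancel₀ hx0
  have h2 : x⁻¹ * x = 1 := inv_mul_cancel₀ hx0
  linear_combination (norm := noncomm_ring) 2 * h2 - 2 * h1

theorem y_ne_zero (hx5 : x ^ 5 = 1) (hx1 : x ≠ 1) : x - x⁻¹ ≠ 0 := by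
  intro h
  have hx0 := ne_zero_of_pow5 hx5
  have h1 : x = x⁻¹ := sub_eq_zero.mp h
  have h2 : x * x = 1 := by
    nth_rewrite 2 [h1]
    exact mul_inv_cancel₀ hx0
  apply hx1
  calc x = (x * x) * (x * x) * x := by rw [h2]; noncomm_ring
    _ = x ^ 5 := by noncomm_ring
    _ = 1 := hx5

end XFacts

section Core

/-- The core of Lemma B. -/
theorem lemmaB_core [CharZero D] {y e m n : D} (he2 : e * e = -1) (hey : e * y = -(y * e))
    (hme : m * e = e * m) (hne : n * e = e * n) (hmy : m * y = y * m) (hny : n * y = y * n)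
    (hmn : m * n = n * m) (h : m * m + n * n = y * y) (hy0 : y ≠ 0) : False := by
  have h0 : (y + (m - n * e)) * (y - (m + n * e)) = 0 := by
    linear_combination (norm := noncomm_ring)
      -h + hmy - n * hme - hmn * e + hny * e - n * hey - n * hne * e + n * n * he2
  have he0 : e ≠ 0 := by
    rintro rfl
    rw [mul_zero] at he2
    exact (neg_ne_zero.mpr one_ne_zero) he2.symm
  have hcomm : e * y = y * e := by
    rcases mul_eq_zero.mp h0 with h1 | h1
    · have hy : y = n * e - m := by linear_combination (norm := noncomm_ring) h1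
      rw [hy]
      linear_combination (norm := noncomm_ring) hme - hne * e
    · have hy : y = m + n * e := by linear_combination (norm := noncomm_ring) h1
      rw [hy]
      linear_combination (norm := noncomm_ring) -hme - hne * e
  have h2 : y * e = -(y * e) := by rw [← hey, hcomm]
  have h3 : y * e = 0 := CharZero.eq_neg_self_iff.mp h2
  exact ((mul_eq_zero.mp h3).resolve_right he0 |> hy0)

/-- The double centralizer of a set, as a subfield. -/
def dc (T : Set D) : Subfield D where
  carrier := Set.centralizer (Set.centralizer T)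
  mul_mem' := Set.mul_mem_centralizer
  one_mem' := Set.one_mem_centralizer
  add_mem' := Set.add_mem_centralizer
  zero_mem' := Set.zero_mem_centralizer
  neg_mem' := Set.neg_mem_centralizer
  inv_mem' := fun _ h => Set.inv_mem_centralizer₀ h

theorem mem_dc {T : Set D} {a : D} : a ∈ dc T ↔ a ∈ Set.centralizer (Set.centralizer T) := Iff.rfl

theorem subset_dc (T : Set D) {a : D} (ha : a ∈ T) : a ∈ dc T :=
  Set.subset_centralizer_centralizer ha

theorem dc_comm_of_cent {T : Set D} {a b : D} (ha : a ∈ dc T) (hb : b ∈ Set.centralizer T) :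
    a * b = b * a :=
  (Set.mem_centralizer_iff.mp ha b hb).symm

theorem dc_comm {T : Set D} (hT : ∀ a ∈ T, ∀ b ∈ T, a * b = b * a) {a b : D} (ha : a ∈ dc T)
    (hb : b ∈ dc T) : a * b = b * a := by
  apply dc_comm_of_cent ha
  rw [Set.mem_centralizer_iff]
  intro t ht
  exact (dc_comm_of_cent hb (Set.mem_centralizer_iff.mpr fun u hu => hT u hu t ht)).symm

/-- The level lemma inside a double centralizer. -/
theorem exists_mn [CharZero D] {c τ : D} (hcτ : c * τ = τ * c) (hτ : τ * τ = 1 - τ) {q : ℕ}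
    (hq : q.Prime) (hq2 : q ≠ 2) (hq5 : q ≠ 5) (hcq : c ^ q = 1) (hc1 : c ≠ 1) :
    ∃ m n : D, m ∈ dc ({c, τ} : Set D) ∧ n ∈ dc ({c, τ} : Set D) ∧ m * n = n * m ∧
      m * m + n * n = -3 - τ := by
  have hT : ∀ a ∈ ({c, τ} : Set D), ∀ b ∈ ({c, τ} : Set D), a * b = b * a := by
    rintro a (rfl | rfl) b (rfl | rfl)
    · rfl
    · exact hcτ
    · exact hcτ.symm
    · rfl
  letI : Field (dc ({c, τ} : Set D)) :=
    { (inferInstance : DivisionRing (dc ({c, τ} : Set D))) with
      mul_comm := fun a b => Subtype.ext (dc_comm hT a.2 b.2) }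
  haveI : CharZero (dc ({c, τ} : Set D)) :=
    ⟨fun a b h => Nat.cast_injective (R := D) (congrArg Subtype.val h)⟩
  have hcm : c ∈ dc ({c, τ} : Set D) := subset_dc _ (Set.mem_insert _ _)
  have hτm : τ ∈ dc ({c, τ} : Set D) := subset_dc _ (Set.mem_insert_of_mem _ rfl)
  let c' : dc ({c, τ} : Set D) := ⟨c, hcm⟩
  let τ' : dc ({c, τ} : Set D) := ⟨τ, hτm⟩
  have hτ' : τ' * τ' = 1 - τ' := Subtype.ext hτ
  have hc' : c' ^ q = 1 := Subtype.ext hcq
  have hc1' : c' ≠ 1 := fun h => hc1 (congrArg Subtype.val h)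
  have hζ : IsPrimitiveRoot c' q := by
    have h1 : orderOf c' = q := by
      haveI : Fact q.Prime := ⟨hq⟩
      exact orderOf_eq_prime hc' hc1'
    rw [← h1]
    exact IsPrimitiveRoot.orderOf c'
  have hs : (1 + 2 * τ') ^ 2 = 5 := by
    linear_combination 4 * hτ'
  obtain ⟨p, r, hpr⟩ := Level.level_two hq hq2 hq5 hζ hs
  have key : (p * (1 + τ') - r) * (p * (1 + τ') - r) + (p + r * (1 + τ')) * (p + r * (1 + τ')) =
      -3 - τ' := by
    linear_combination (3 + τ') * hpr + (p ^ 2 + r ^ 2) * hτ'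
  refine ⟨((p * (1 + τ') - r : dc ({c, τ} : Set D)) : D), ((p + r * (1 + τ') : dc ({c, τ} : Set D)) : D),
    Subtype.property _, Subtype.property _, ?_, ?_⟩
  · exact dc_comm hT (Subtype.property _) (Subtype.property _)
  · exact congrArg Subtype.val key

/-- **Lemma B.** -/
theorem lemmaB [CharZero D] {x e c : D} (hx5 : x ^ 5 = 1) (hx1 : x ≠ 1) (he2 : e * e = -1)
    (hex : e * x = x⁻¹ * e) (hcx : c * x = x * c) (hce : c * e = e * c) {q : ℕ} (hq : q.Prime)
    (hq2 : q ≠ 2) (hq5 : q ≠ 5) (hcq : c ^ q = 1) (hc1 : c ≠ 1) : False := by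
  have hx0 := ne_zero_of_pow5 hx5
  have h1 : x * x⁻¹ = 1 := mul_inv_cancel₀ hx0
  have h2 : x⁻¹ * x = 1 := inv_mul_cancel₀ hx0
  have hcu : c * x⁻¹ = x⁻¹ * c := (Commute.inv_right₀ (show Commute c x from hcx))
  have heu : e * x⁻¹ = x * e := by
    calc e * x⁻¹ = x * (x⁻¹ * e) * x⁻¹ := by
          rw [← mul_assoc, h1, one_mul]
      _ = x * (e * x) * x⁻¹ := by rw [hex]
      _ = x * e * (x * x⁻¹) := by noncomm_ring
      _ = x * e := by rw [h1, mul_one]
  set u := x⁻¹ with hu
  have hcτ : c * (x + u) = (x + u) * c := by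
    linear_combination (norm := noncomm_ring) hcx + hcu
  obtain ⟨m, n, hm, hn, hmn, hmm⟩ := exists_mn hcτ (tau_sq hx5 hx1) hq hq2 hq5 hcq hc1
  have hcent : ∀ b : D, c * b = b * c → (x + u) * b = b * (x + u) → b ∈ Set.centralizer ({c, x + u} : Set D) := by
    intro b hb1 hb2
    rw [Set.mem_centralizer_iff]
    rintro t (rfl | rfl)
    · exact hb1
    · exact hb2
  have hey : e * (x - u) = -((x - u) * e) := by
    linear_combination (norm := noncomm_ring) hex - heu
  have heτ : (x + u) * e = e * (x + u) := by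
    linear_combination (norm := noncomm_ring) -hex - heu
  have heC := hcent e hce heτ
  have hyc : c * (x - u) = (x - u) * c := by
    linear_combination (norm := noncomm_ring) hcx - hcu
  have hyC := hcent (x - u) hyc (tau_y hx5)
  exact lemmaB_core he2 hey (dc_comm_of_cent hm heC) (dc_comm_of_cent hn heC)
    (dc_comm_of_cent hm hyC) (dc_comm_of_cent hn hyC) hmn (by rw [hmm, y_sq hx5 hx1])
    (y_ne_zero hx5 hx1)

/-- The core of Lemma C. -/
theorem lemmaC_core [CharZero D] {w W τ y : D} (hW : w * w = W) (hW2 : W * W = -1)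
    (hτ : τ * τ = 1 - τ) (hy2 : y * y = -3 - τ) (hτy : τ * y = y * τ) (hWτ : W * τ = τ * W)
    (hWy : W * y = -(y * W)) (hwτ : w * τ = (-1 - τ) * w) (hwy : w * y = y * τ * w) : False := by
  have hwW : w * W = W * w := by rw [← hW, mul_assoc]
  obtain ⟨s, hs⟩ : ∃ s, s = 1 + 2 * τ := ⟨_, rfl⟩
  obtain ⟨ρ, hρ⟩ : ∃ ρ, ρ = (1 - W) * w := ⟨_, rfl⟩
  have hA : w * s = -(s * w) := by
    rw [hs]
    linear_combination (norm := (noncomm_ring; try norm_num)) 2 * hwτ
  have hB : W * s = s * W := by
    rw [hs]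
    linear_combination (norm := (noncomm_ring; try norm_num)) 2 * hWτ
  have hC : s * s = 5 := by
    rw [hs]
    linear_combination (norm := (noncomm_ring; try norm_num)) 4 * hτ
  have hL1 : y * s = s * y := by
    rw [hs]
    linear_combination (norm := (noncomm_ring; try norm_num)) -2 * hτy
  have hL2 : τ * s = s * τ := by
    rw [hs]
    noncomm_ring
  have hD : ρ * s = -(s * ρ) := by
    rw [hρ]
    linear_combination (norm := noncomm_ring) (1 - W) * hA + hB * w
  have hE : W * ρ = ρ * W := by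
    rw [hρ]
    linear_combination (norm := noncomm_ring) -(1 - W) * hwW
  have hF : ρ * ρ = 2 := by
    rw [hρ]
    linear_combination (norm := (noncomm_ring; try norm_num))
      -(1 - W) * hwW * w + (1 - W) * (1 - W) * hW + (W - 2) * hW2
  obtain ⟨p, hp⟩ : ∃ p, p = s + s * ρ := ⟨_, rfl⟩
  have hG : p * p = -5 := by
    rw [hp]
    linear_combination (norm := (noncomm_ring; try norm_num))
      s * hD + s * hD * ρ - hC - s * s * hF
  have hH : W * p = p * W := by
    rw [hp]
    linear_combination (norm := noncomm_ring) hB + hB * ρ + s * hE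
  obtain ⟨j, hj⟩ : ∃ j, j = y + τ * y * W := ⟨_, rfl⟩
  have hI : j * j = -5 := by
    rw [hj]
    linear_combination (norm := (noncomm_ring; try norm_num))
      hτ + (2 - τ) * hy2 + hτ * (y * y) - τ * hτy * y - hτy * y * W + τ * y * hWy +
        τ * y * hWτ * y * W + τ * y * τ * hWy * W - τ * y * τ * y * hW2
  have hJ : W * j = -(j * W) := by
    rw [hj]
    linear_combination (norm := noncomm_ring) hWy + τ * hWy * W + hWτ * y * W
  have hK : j * s = s * j := by
    rw [hj]
    linear_combination (norm := noncomm_ring) hL1 + τ * y * hB + τ * hL1 * W + hL2 * y * W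
  have hLL : ρ * τ = (-1 - τ) * ρ := by
    rw [hρ]
    linear_combination (norm := noncomm_ring) (1 - W) * hwτ + hWτ * w
  have hM : ρ * y = y * τ * (1 + W) * w := by
    rw [hρ]
    linear_combination (norm := noncomm_ring) (1 - W) * hwy + y * hWτ * w - hWy * τ * w
  have hN : j * ρ = ρ * j := by
    rw [hj]
    subst hρ
    linear_combination (norm := noncomm_ring)
      hτy * (1 + W) * w - τ * y * hW2 * w - hM + y * hW2 * w + y * hτ * (1 + W) * W * w +
        hτy * τ * (1 + W) * W * w - (-1 - τ) * y * τ * (1 + W) * hwW - (-1 - τ) * hM * W -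
        hLL * y * W
  have hO : p * j = j * p := by
    rw [hp]
    linear_combination (norm := noncomm_ring) -hK - hK * ρ - s * hN
  have hprod : (p - j) * (p + j) = 0 := by
    linear_combination (norm := noncomm_ring) hG - hI + hO
  have hW0 : W ≠ 0 := by
    rintro rfl
    rw [mul_zero] at hW2
    exact (neg_ne_zero.mpr one_ne_zero) hW2.symm
  have h5 : (-5 : D) ≠ 0 := by norm_num
  rcases mul_eq_zero.mp hprod with h | h
  · have hpj : p = j := sub_eq_zero.mp h
    rw [← hpj] at hJ
    have h1 : p * W = -(p * W) := by rw [← hJ, hH]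
    have h2 : p * W = 0 := CharZero.eq_neg_self_iff.mp h1
    have h3 : p = 0 := (mul_eq_zero.mp h2).resolve_right hW0
    rw [h3, mul_zero] at hG
    exact h5 hG.symm
  · have hpj : j = -p := by linear_combination (norm := noncomm_ring) h
    rw [hpj] at hJ
    have h1 : p * W = -(p * W) := by
      have h4 : W * p = -(p * W) := by linear_combination (norm := noncomm_ring) -hJ
      rw [← h4, hH]
    have h2 : p * W = 0 := CharZero.eq_neg_self_iff.mp h1
    have h3 : p = 0 := (mul_eq_zero.mp h2).resolve_right hW0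
    rw [h3, mul_zero] at hG
    exact h5 hG.symm

/-- **Lemma C.** -/
theorem lemmaC [CharZero D] {x w : D} (hx5 : x ^ 5 = 1) (hx1 : x ≠ 1) (hwx : w * x = x * x * w)
    (hw4 : w * w * (w * w) = -1) : False := by
  have hx0 := ne_zero_of_pow5 hx5
  have h1 : x * x⁻¹ = 1 := mul_inv_cancel₀ hx0
  have h2 : x⁻¹ * x = 1 := inv_mul_cancel₀ hx0
  have hS := sumU hx5 hx1
  have hτ := tau_sq hx5 hx1
  have hy := y_sq hx5 hx1
  have hτy := tau_y hx5
  have hx4 : x * x * x * x = x⁻¹ := by
    calc x * x * x * x = x ^ 5 * x⁻¹ := by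
          rw [pow_succ, pow_succ, pow_succ, pow_succ, pow_one, mul_assoc (x * x * x * x), h1, mul_one]
      _ = x⁻¹ := by rw [hx5, one_mul]
  set u := x⁻¹ with hu
  have hwu : w * u = u * u * w := by
    linear_combination (norm := noncomm_ring)
      -(u * u * hwx * u) + u * u * w * h1 - u * h2 * x * w * u - h2 * w * u
  have hWx : w * w * x = u * (w * w) := by
    linear_combination (norm := noncomm_ring)
      w * hwx + hwx * x * w + x * x * hwx * w + hx4 * w * w
  have hWu : w * w * u = x * (w * w) := by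
    linear_combination (norm := noncomm_ring)
      -(x * hWx * u) + x * w * w * h1 - h1 * w * w * u
  have hWτ : w * w * (x + u) = (x + u) * (w * w) := by
    linear_combination (norm := noncomm_ring) hWx + hWu
  have hWy : w * w * (x - u) = -((x - u) * (w * w)) := by
    linear_combination (norm := noncomm_ring) hWx - hWu
  have hwτ : w * (x + u) = (-1 - (x + u)) * w := by
    linear_combination (norm := noncomm_ring) hwx + hwu + hS * w
  have hwy : w * (x - u) = (x - u) * (x + u) * w := by
    linear_combination (norm := noncomm_ring) hwx - hwu - h1 * w + h2 * w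
  exact lemmaC_core rfl hw4 hτ hy hτy hWτ hWy hwτ hwy

end Core

end Cfsg.Agent.Lib.Amitsur.DLemmas
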