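/-
Amitsur's theorem: a finite non-solvable subgroup of the multiplicative group of a division ring
is isomorphic to `SL(2,5)`.
-/
import Cfsg.Agent.Lib.Amitsur.DLemmas
import Cfsg.Agent.Lib.Zassen.CtxOf
import Cfsg.Agent.Lib.Frobenius.DivisionRing

set_option autoImplicit false
set_option linter.unusedSectionVars false
set_option linter.style.haveILetI false

namespace Cfsg.Agent.Lib.Amitsur.Main

open Cfsg.Agent.Lib.Amitsur.DLemmas

abbrev SL25 := Matrix.SpecialLinearGroup (Fin 2) (ZMod 5)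
def x0 : SL25 := ⟨!![1, 1; 0, 1], by decide⟩
def u1 : SL25 := ⟨!![1, 0; 1, 1], by decide⟩
def e0 : SL25 := ⟨!![2, 0; 0, 3], by decide⟩
def z0 : SL25 := e0 * e0
theorem F0a : x0 ^ 5 = 1 := by decide +kernel
theorem F0b : x0 ≠ 1 := by decide +kernel
theorem F0c : e0 * x0 = x0 ^ 4 * e0 := by decide +kernel
theorem F0d : z0 * z0 = 1 := by decide +kernel
theorem F0e : z0 ≠ 1 := by decide +kernel
theorem F5 : (x0 * u1) ^ 5 = z0 := by decide +kernel
theorem F5a : u1 ^ 5 = 1 := by decide +kernel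
theorem F5b : u1 ≠ 1 := by decide +kernel
theorem F5c : (x0 ^ 3 * u1) * (x0 ^ 3 * u1) = z0 := by decide +kernel
theorem F4 : ∀ t : SL25, t * x0 = x0 * t → t * u1 = u1 * t → t = 1 ∨ t = z0 := by decide +kernel
theorem F1 : ∀ y : SL25, y ^ 5 = 1 → y ≠ 1 → ∃ s : SL25, s * y = x0 * s ∨ s * y = x0 ^ 2 * s := by
  decide +kernel
theorem F2 : ∀ t : SL25, t * x0 = x0 ^ 4 * t → t * t = z0 := by decide +kernel
theorem F3 : ∀ v : SL25, v ^ 5 = 1 → v ≠ 1 → (x0 * v) ^ 5 = z0 →
    ∃ k : Fin 5, v * x0 ^ (k : ℕ) = x0 ^ (k : ℕ) * u1 := by decide +kernel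

section Core

variable {D : Type*} [DivisionRing D] [CharZero D] {G : Type*} [Group G] (ι : G →* D)
  (hι : Function.Injective ι) (S : Subgroup G) (ψ : SL25 →* G) (hψ : Function.Injective ψ)
  (hψS : ∀ s, ψ s ∈ S) (hSψ : ∀ g ∈ S, ∃ t, ψ t = g)

include hι hψ

theorem iota_ne_one {g : G} (hg : g ≠ 1) : ι g ≠ 1 := by
  intro h
  apply hg
  apply hι
  rw [h, map_one]

/-- The central involution. -/
theorem iota_z : ι (ψ z0) = -1 := by
  have h1 : ι (ψ z0) * ι (ψ z0) = 1 := by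
    rw [← map_mul, ← map_mul, F0d, map_one, map_one]
  have h2 : ι (ψ z0) ≠ 1 := by
    apply iota_ne_one ι hι ψ hψ
    intro h
    apply F0e
    apply hψ
    rw [h, map_one]
  exact (mul_self_eq_one_iff.mp h1).resolve_left h2

theorem invol {a : G} (ha : a * a = 1) : a = 1 ∨ a = ψ z0 := by
  have h1 : ι a * ι a = 1 := by rw [← map_mul, ha, map_one]
  rcases mul_self_eq_one_iff.mp h1 with h | h
  · left
    apply hι
    rw [h, map_one]
  · right
    apply hι
    rw [h, iota_z ι hι ψ hψ]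

theorem central (a : G) : a * ψ z0 = ψ z0 * a := by
  apply hι
  rw [map_mul, map_mul, iota_z ι hι ψ hψ]
  simp

theorem iota_x5 : ι (ψ x0) ^ 5 = 1 := by
  rw [← map_pow, ← map_pow, F0a, map_one, map_one]

theorem iota_x1 : ι (ψ x0) ≠ 1 := by
  apply iota_ne_one ι hι ψ hψ
  intro h
  apply F0b
  apply hψ
  rw [h, map_one]

theorem iota_e2 : ι (ψ e0) * ι (ψ e0) = -1 := by
  rw [← map_mul, ← map_mul, ← iota_z ι hι ψ hψ]
  rfl

theorem iota_ex : ι (ψ e0) * ι (ψ x0) = (ι (ψ x0))⁻¹ * ι (ψ e0) := by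
  have h1 : (ι (ψ x0))⁻¹ = ι (ψ x0) ^ 4 := by
    apply inv_eq_of_mul_eq_one_left
    rw [← pow_succ]
    exact iota_x5 ι hι ψ hψ
  rw [h1, ← map_mul, ← map_mul, F0c]
  simp

include hψS hSψ

/-- An element squaring `x` does not exist. -/
theorem case_square (h2 : ∀ g, g * g ∈ S) (g : G) (hgx : g * ψ x0 = ψ x0 * ψ x0 * g) : False := by
  obtain ⟨t, ht⟩ := hSψ _ (h2 g)
  have h1 : t * x0 = x0 ^ 4 * t := by
    apply hψ
    rw [map_mul, map_mul, ht, map_pow]
    calc g * g * ψ x0 = g * (g * ψ x0) := by group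
      _ = g * (ψ x0 * ψ x0 * g) := by rw [hgx]
      _ = (g * ψ x0) * ψ x0 * g := by group
      _ = (ψ x0 * ψ x0 * g) * ψ x0 * g := by rw [hgx]
      _ = ψ x0 * ψ x0 * (g * ψ x0) * g := by group
      _ = ψ x0 * ψ x0 * (ψ x0 * ψ x0 * g) * g := by rw [hgx]
      _ = ψ x0 ^ 4 * (g * g) := by
          simp only [pow_succ, pow_zero, one_mul, mul_assoc]
  have h3 := F2 t h1
  have hw4 : ι g * ι g * (ι g * ι g) = -1 := by
    rw [← map_mul, ← map_mul, ← ht, ← map_mul, h3]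
    exact iota_z ι hι ψ hψ
  refine lemmaC (iota_x5 ι hι ψ hψ) (iota_x1 ι hι ψ hψ) (w := ι g) ?_ hw4
  rw [← map_mul, ← map_mul, ← map_mul, hgx]

/-- An element centralizing `x` outside `S` does not exist. -/
theorem case_central (hN : S.Normal) (h2 : ∀ g, g * g ∈ S) (g : G) (hg : g ∉ S)
    (hgx : g * ψ x0 = ψ x0 * g) : False := by
  have hU5 : ψ u1 ^ 5 = 1 := by rw [← map_pow, F5a, map_one]
  have hU1 : ψ u1 ≠ 1 := by
    intro h
    apply F5b
    apply hψ
    rw [h, map_one]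
  obtain ⟨v, hv⟩ := hSψ _ (hN.conj_mem _ (hψS u1) g)
  have hv5 : v ^ 5 = 1 := by
    apply hψ
    rw [map_pow, hv, map_one, conj_pow, hU5]
    group
  have hv1 : v ≠ 1 := by
    rintro rfl
    rw [map_one] at hv
    apply hU1
    have : ψ u1 = g⁻¹ * (g * ψ u1 * g⁻¹) * g := by group
    rw [this, ← hv]
    group
  have hv3 : (x0 * v) ^ 5 = z0 := by
    apply hψ
    have e1 : ψ (x0 * v) = g * (ψ x0 * ψ u1) * g⁻¹ := by
      rw [map_mul, hv, ← mul_assoc, ← mul_assoc, ← hgx]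
      group
    have e2 : (ψ x0 * ψ u1) ^ 5 = ψ z0 := by
      rw [← map_mul, ← map_pow, F5]
    rw [map_pow, e1, conj_pow, e2, central ι hι ψ hψ g]
    group
  obtain ⟨k, hk⟩ := F3 v hv5 hv1 hv3
  have hk' : (g * ψ u1 * g⁻¹) * ψ x0 ^ (k : ℕ) = ψ x0 ^ (k : ℕ) * ψ u1 := by
    rw [← hv, ← map_pow, ← map_mul, hk, map_mul]
  set K := ψ x0 ^ (k : ℕ) with hKdef
  have hKX : K * ψ x0 = ψ x0 * K := (Commute.refl (ψ x0)).pow_left (k : ℕ)
  have hKS : K ∈ S := by
    rw [hKdef, ← map_pow]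
    exact hψS _
  have hfS : K⁻¹ * g ∉ S := fun h => hg ((Subgroup.mul_mem_cancel_left S (S.inv_mem hKS)).mp h)
  have hfX : (K⁻¹ * g) * ψ x0 = ψ x0 * (K⁻¹ * g) := by
    have h1 : K⁻¹ * ψ x0 = ψ x0 * K⁻¹ := by
      calc K⁻¹ * ψ x0 = K⁻¹ * (ψ x0 * K) * K⁻¹ := by group
        _ = K⁻¹ * (K * ψ x0) * K⁻¹ := by rw [hKX]
        _ = ψ x0 * K⁻¹ := by group
    rw [mul_assoc, hgx, ← mul_assoc, h1, mul_assoc]
  have hfU : (K⁻¹ * g) * ψ u1 = ψ u1 * (K⁻¹ * g) := by
    have h1 : g * ψ u1 = (g * ψ u1 * g⁻¹) * g := by group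
    have h3 : K⁻¹ * (g * ψ u1 * g⁻¹) = ψ u1 * K⁻¹ := by
      calc K⁻¹ * (g * ψ u1 * g⁻¹) = K⁻¹ * ((g * ψ u1 * g⁻¹) * K) * K⁻¹ := by group
        _ = K⁻¹ * (K * ψ u1) * K⁻¹ := by rw [hk']
        _ = ψ u1 * K⁻¹ := by group
    rw [mul_assoc, h1, ← mul_assoc, h3, mul_assoc]
  set f := K⁻¹ * g with hfdef
  obtain ⟨t, ht⟩ := hSψ _ (h2 f)
  have ht1 : t * x0 = x0 * t := by
    apply hψ
    rw [map_mul, map_mul, ht, mul_assoc, hfX, ← mul_assoc, hfX, mul_assoc]
  have ht2 : t * u1 = u1 * t := by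
    apply hψ
    rw [map_mul, map_mul, ht, mul_assoc, hfU, ← mul_assoc, hfU, mul_assoc]
  have hZS : ψ z0 ∈ S := hψS z0
  rcases F4 t ht1 ht2 with rfl | rfl
  · rw [map_one] at ht
    rcases invol ι hι ψ hψ ht.symm with h | h
    · apply hfS
      rw [h]
      exact S.one_mem
    · apply hfS
      rw [h]
      exact hZS
  · set a := ψ (x0 ^ 3 * u1) with hadef
    have hfa : f * a = a * f := by
      have e : a = ψ x0 ^ 3 * ψ u1 := by rw [hadef, map_mul, map_pow]
      have hf3 : f * ψ x0 ^ 3 = ψ x0 ^ 3 * f := (show Commute f (ψ x0) from hfX).pow_right 3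
      rw [e, ← mul_assoc, hf3, mul_assoc, hfU, mul_assoc]
    have haS : a ∈ S := hψS _
    have haa : a * a = ψ z0 := by
      rw [hadef, ← map_mul, F5c]
    have hone : (f * a) * (f * a) = 1 := by
      have : (f * a) * (f * a) = (f * f) * (a * a) := by
        rw [mul_assoc f a, ← mul_assoc a f a, ← hfa]
        group
      rw [this, ← ht, haa, ← map_mul, F0d, map_one]
    have hfaS : f * a ∉ S := fun h => hfS ((Subgroup.mul_mem_cancel_right S haS).mp h)
    rcases invol ι hι ψ hψ hone with h | h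
    · apply hfaS
      rw [h]
      exact S.one_mem
    · apply hfaS
      rw [h]
      exact hZS

/-- **No element outside** when `S` is normal of index two. -/
theorem no_outside (hN : S.Normal) (h2 : ∀ g, g * g ∈ S) (g : G) (hg : g ∉ S) : False := by
  have hX5 : ψ x0 ^ 5 = 1 := by rw [← map_pow, F0a, map_one]
  have hX1 : ψ x0 ≠ 1 := by
    intro h
    apply F0b
    apply hψ
    rw [h, map_one]
  obtain ⟨y', hy'⟩ := hSψ _ (hN.conj_mem _ (hψS x0) g)
  have hy5 : y' ^ 5 = 1 := by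
    apply hψ
    rw [map_pow, hy', map_one, conj_pow, hX5]
    group
  have hy1 : y' ≠ 1 := by
    rintro rfl
    rw [map_one] at hy'
    apply hX1
    have : ψ x0 = g⁻¹ * (g * ψ x0 * g⁻¹) * g := by group
    rw [this, ← hy']
    group
  obtain ⟨s, hs⟩ := F1 y' hy5 hy1
  have hg1 : ψ s * g ∉ S := fun h => hg ((Subgroup.mul_mem_cancel_left S (hψS s)).mp h)
  have hconj : (ψ s * g) * ψ x0 = ψ (s * y') * (ψ s)⁻¹ * (ψ s * g) := by
    rw [map_mul, hy']
    group
  rcases hs with hs | hs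
  · refine case_central ι hι S ψ hψ hψS hSψ hN h2 (ψ s * g) hg1 ?_
    rw [hconj, hs, map_mul]
    group
  · refine case_square ι hι S ψ hψ hψS hSψ h2 (ψ s * g) ?_
    rw [hconj, hs, map_mul, map_pow, pow_two]
    group

/-- **No element centralizing `S`** of odd prime order prime to five. -/
theorem no_central {c : G} (hcX : c * ψ x0 = ψ x0 * c) (hcE : c * ψ e0 = ψ e0 * c) {q : ℕ}
    (hq : q.Prime) (hq2 : q ≠ 2) (hq5 : q ≠ 5) (hcq : c ^ q = 1) (hc1 : c ≠ 1) : False := by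
  refine lemmaB (iota_x5 ι hι ψ hψ) (iota_x1 ι hι ψ hψ) (iota_e2 ι hι ψ hψ) (iota_ex ι hι ψ hψ)
    (c := ι c) ?_ ?_ hq hq2 hq5 ?_ (iota_ne_one ι hι ψ hψ hc1)
  · rw [← map_mul, ← map_mul, hcX]
  · rw [← map_mul, ← map_mul, hcE]
  · rw [← map_pow, hcq, map_one]

end Core

section Final

/-- The structure theorem gives the isomorphism. -/
theorem of_struct {D : Type*} [DivisionRing D] [CharZero D] {G : Type*} [Group G] [Finite G]
    (ι : G →* D) (hι : Function.Injective ι) {G₀ S M : Subgroup G} (hG₀ : G₀.Normal)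
    (hidx : G₀.index = 1 ∨ G₀.index = 2) (hsup : S ⊔ M = G₀)
    (hcomm : ∀ s ∈ S, ∀ x ∈ M, s * x = x * s) (e : S ≃* SL25) (hMc : (Nat.card M).Coprime 30) :
    Nonempty (G ≃* SL25) := by
  let ψ : SL25 →* G := S.subtype.comp e.symm.toMonoidHom
  have hψ : Function.Injective ψ := S.subtype_injective.comp e.symm.injective
  have hψS : ∀ s, ψ s ∈ S := fun s => (e.symm s).2
  have hSψ : ∀ g ∈ S, ∃ t, ψ t = g := fun g hg => ⟨e ⟨g, hg⟩, by simp [ψ]⟩
  have hM : M = ⊥ := by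
    by_contra hne
    haveI : Nontrivial M := (Subgroup.nontrivial_iff_ne_bot M).mpr hne
    have hc1 : Nat.card M ≠ 1 := Finite.one_lt_card_iff_nontrivial.mpr inferInstance |>.ne'
    have hq : (Nat.minFac (Nat.card M)).Prime := Nat.minFac_prime hc1
    haveI : Fact (Nat.minFac (Nat.card M)).Prime := ⟨hq⟩
    have hd : Nat.minFac (Nat.card M) ∣ Nat.card M := Nat.minFac_dvd _
    have hnd : ∀ r : ℕ, r ∣ 30 → r ≠ 1 → Nat.minFac (Nat.card M) ≠ r := by
      intro r hr hr1 hqr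
      rw [hqr] at hd
      exact hr1 (Nat.eq_one_of_dvd_coprimes hMc hd hr)
    obtain ⟨c, hc⟩ := exists_prime_orderOf_dvd_card' (G := M) _ hd
    have hcne : (c : G) ≠ 1 := by
      intro h
      have : c = 1 := Subtype.ext h
      rw [this, orderOf_one] at hc
      exact hq.one_lt.ne hc
    refine no_central ι hι S ψ hψ hψS hSψ (c := (c : G)) ?_ ?_ hq (hnd 2 (by norm_num) (by norm_num))
      (hnd 5 (by norm_num) (by norm_num)) ?_ hcne
    · exact (hcomm _ (hψS x0) _ c.2).symm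
    · exact (hcomm _ (hψS e0) _ c.2).symm
    · have : c ^ Nat.minFac (Nat.card M) = 1 := by
        rw [← hc]
        exact pow_orderOf_eq_one c
      exact congrArg Subtype.val this
  have hS0 : S = G₀ := by
    rw [← hsup, hM, sup_bot_eq]
  subst hS0
  rcases hidx with h | h
  · have hS : S = ⊤ := Subgroup.index_eq_one.mp h
    subst hS
    exact ⟨Subgroup.topEquiv.symm.trans e⟩
  · exfalso
    have hne : S ≠ ⊤ := by
      rintro rfl
      rw [Subgroup.index_top] at h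
      omega
    obtain ⟨g, hg⟩ : ∃ g, g ∉ S := by
      by_contra hcon
      push Not at hcon
      exact hne ((Subgroup.eq_top_iff' S).mpr hcon)
    exact no_outside ι hι S ψ hψ hψS hSψ hG₀ (Subgroup.mul_self_mem_of_index_two h) g hg

/-- **Amitsur's theorem.** -/
theorem amitsur {D : Type*} [DivisionRing D] (H : Subgroup Dˣ) [Finite H]
    (hH : ¬ Group.IsSolvable H) : Nonempty (H ≃* SL25) := by
  have hne : H ≠ ⊥ := by
    rintro rfl
    exact hH inferInstance
  obtain ⟨q, hq⟩ := CharP.exists D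
  rcases CharP.char_is_prime_or_zero D q with h | h
  · exfalso
    haveI : Fact q.Prime := ⟨h⟩
    haveI : IsCyclic H := Cfsg.Agent.Lib.Frobenius.DivisionRing.isCyclic_of_charP H q
    apply hH
    infer_instance
  · subst h
    haveI : CharZero D := CharP.charP_to_charZero D
    obtain ⟨G₀, hG₀, hidx, S, M, hsup, -, hcomm, ⟨e⟩, -, hMc⟩ :=
      Cfsg.Agent.Lib.Zassen.CtxOf.fc_struct hH
        (Cfsg.Agent.Lib.Frobenius.DivisionRing.isComplement H hne)
    let ι : H →* D := (Units.coeHom D).comp H.subtype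
    have hι : Function.Injective ι := fun a b h => Subtype.ext (Units.ext h)
    exact of_struct ι hι hG₀ hidx hsup hcomm e hMc

end Final

end Cfsg.Agent.Lib.Amitsur.Main
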